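import Cfsg.Agent.H883.C7.Rad

/-!
# Elements commuting with the Siegel group of a slot
-/

set_option autoImplicit false
set_option linter.unusedSectionVars false
set_option linter.unusedSimpArgs false

namespace Cfsg.Agent.H883.C7

open QuadraticMap hiding proj
open Cfsg.Agent.LieClassical.OrthCore Cfsg.Agent.LieClassical.OrthTrans
open Cfsg.Agent.H882.Ten

section torus

variable {F : Type*} {V : Type*} [Field F] [AddCommGroup V] [Module F V] {Q : QuadraticForm F V}

/-- The torus of a hyperbolic pair. -/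
theorem exists_torus0 {w w' : V} (hyp : Hyp Q w w') {c : F} (hc : c ≠ 0) :
    ∃ h r : V ≃ₗ[F] V, h ∈ O Q ∧ r ∈ O Q ∧ h w = c • w ∧ h w' = c⁻¹ • w' ∧
      (∀ z, polar Q w z = 0 → polar Q w' z = 0 → h z = z) ∧ h * r * h⁻¹ * r⁻¹ = h * h := by
  have q1 : Q (w - (1 : F) • w') = -1 := by
    rw [sub_eq_add_neg, ← neg_smul, Q_add, QuadraticMap.map_smul, hyp.left, hyp.right, polar_smul_right, hyp.pair]
    simp
  have q2 : Q (w - c⁻¹ • w') = -c⁻¹ := by
    rw [sub_eq_add_neg, ← neg_smul, Q_add, QuadraticMap.map_smul, hyp.left, hyp.right, polar_smul_right, hyp.pair]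
    simp
  have n1 : Q (w - (1 : F) • w') ≠ 0 := by rw [q1]; exact neg_ne_zero.2 one_ne_zero
  have n2 : Q (w - c⁻¹ • w') ≠ 0 := by rw [q2]; exact neg_ne_zero.2 (inv_ne_zero hc)
  set r1 := refl Q (w - (1 : F) • w') n1 with hr1
  set r2 := refl Q (w - c⁻¹ • w') n2 with hr2
  have hcc : c⁻¹ * c = 1 := inv_mul_cancel₀ hc
  have i1 : ∀ v, r1 v = v + (polar Q w v - polar Q w' v) • (w - w') := by
    intro v
    rw [hr1, refl_apply, q1, polar_sub_left, polar_smul_left]
    simp only [one_smul, one_mul, inv_neg, inv_one, smul_eq_mul]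
    module
  have i2 : ∀ v, r2 v = v + (c * polar Q w v - polar Q w' v) • (w - c⁻¹ • w') := by
    intro v
    rw [hr2, refl_apply, q2, polar_sub_left, polar_smul_left]
    have e : (-c⁻¹)⁻¹ * (polar Q w v - c⁻¹ • polar Q w' v) = -(c * polar Q w v - polar Q w' v) := by
      rw [inv_neg, inv_inv, smul_eq_mul]
      linear_combination polar Q w' v * hcc
    rw [e]
    module
  refine ⟨r2 * r1, r1, (O Q).mul_mem (refl_mem_O n2) (refl_mem_O n1), refl_mem_O n1, ?_, ?_, ?_, ?_⟩
  · show r2 (r1 w) = _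
    rw [i1, hyp.polar_left, hyp.pair', zero_sub, neg_one_smul, i2]
    simp only [polar_add_right, polar_neg_right, polar_sub_right, hyp.polar_left, hyp.polar_right, hyp.pair, hyp.pair']
    have e : w + -(w - w') + (c * (0 + -(0 - 1)) - (1 + -(1 - 0))) • (w - c⁻¹ • w') =
        (1 - c * c⁻¹) • w' + c • w := by module
    rw [e, mul_inv_cancel₀ hc, sub_self, zero_smul, zero_add]
  · show r2 (r1 w') = _
    rw [i1, hyp.polar_right, hyp.pair, sub_zero, one_smul, i2]
    simp only [polar_add_right, polar_neg_right, polar_sub_right, hyp.polar_left, hyp.polar_right, hyp.pair, hyp.pair']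
    have e : w' + (w - w') + (c * (1 + (0 - 1)) - (0 + (1 - 0))) • (w - c⁻¹ • w') = c⁻¹ • w' := by module
    exact e
  · intro z hz hz'
    show r2 (r1 z) = z
    rw [i1, hz, hz', sub_self, zero_smul, add_zero, i2, hz, hz', mul_zero, sub_self, zero_smul, add_zero]
  · have e1 : r1⁻¹ = r1 := refl_inv n1
    have e2 : r2⁻¹ = r2 := refl_inv n2
    have e3 : r1 * r1 = 1 := refl_mul_self n1
    rw [mul_inv_rev, e1, e2]
    calc r2 * r1 * r1 * (r1 * r2) * r1 = r2 * (r1 * r1) * r1 * r2 * r1 := by group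
      _ = r2 * r1 * (r2 * r1) := by rw [e3]; group

theorem exists_torus {w w' : V} (hyp : Hyp Q w w') {c : F} (hc : c ≠ 0) :
    ∃ h ∈ ⁅O Q, O Q⁆, h ∈ O Q ∧ h w = (c * c) • w ∧ h w' = (c * c)⁻¹ • w' ∧
      (∀ z, polar Q w z = 0 → polar Q w' z = 0 → h z = z) := by
  obtain ⟨h, r, hO, rO, h1, h2, h3, h4⟩ := exists_torus0 hyp hc
  refine ⟨h * h, ?_, (O Q).mul_mem hO hO, ?_, ?_, ?_⟩
  · rw [← h4]
    exact Subgroup.commutator_mem_commutator hO rO
  · show h (h w) = _
    rw [h1, map_smul, h1, smul_smul]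
  · show h (h w') = _
    rw [h2, map_smul, h2, smul_smul, mul_inv]
  · intro z hz hz'
    show h (h z) = z
    rw [h3 z hz hz', h3 z hz hz']

end torus

section gen

variable {F : Type*} {U : Type*} {W : Type*} {V : Type*} [Field F] [AddCommGroup U] [Module F U]
  [AddCommGroup W] [Module F W] [AddCommGroup V] [Module F V]
  {t : U →ₗ[F] W →ₗ[F] V} {QU : QuadraticForm F U} {QW : QuadraticForm F W} {Q : QuadraticForm F V}
  {X : Subgroup (V ≃ₗ[F] V)}

theorem isR_of (S : TSt t QU QW Q) {w w' : W} (hyp : Hyp QW w w') {g : V ≃ₗ[F] V}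
    (h1 : ∀ u, g (t u w) = t u w) (h2 : ∀ u z, polar QW w z = 0 → ∃ u', g (t u z) = t u z + t u' w) :
    ∃ τ, IsR t QW w g τ := by
  let τ : W →ₗ[F] U →ₗ[F] U := (t.flip).compr₂ (S.cw w' ∘ₗ ((g : V →ₗ[F] V) - LinearMap.id))
  have hτ : ∀ z u, τ z u = S.cw w' (g (t u z) - t u z) := fun z u => rfl
  refine ⟨τ, h1, fun u z hz => ?_⟩
  obtain ⟨u', hu'⟩ := h2 u z hz
  have : τ z u = u' := by
    rw [hτ, hu', add_sub_cancel_left, S.cw_t, hyp.pair', one_smul]
  rw [this]
  exact hu'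

theorem siegel_sub (S : TSt t QU QW Q) {w y : W} (hw : QW w = 0) (hy : polar QW w y = 0) (v : V) :
    rW S.ten (siegel QW w y hw hy) v - v =
      t (S.cw w v) y - t (S.cw y v) w - (QW y) • t (S.cw w v) w := by
  have : ((rW S.ten (siegel QW w y hw hy) : V ≃ₗ[F] V) : V →ₗ[F] V) - LinearMap.id =
      (t.flip y) ∘ₗ S.cw w - (t.flip w) ∘ₗ S.cw y - (QW y) • ((t.flip w) ∘ₗ S.cw w) := by
    refine ext_t S.ten fun u z => ?_
    simp only [LinearMap.sub_apply, LinearMap.smul_apply, LinearMap.comp_apply, LinearEquiv.coe_coe, rW_apply,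
      siegel_apply, S.cw_t, LinearMap.flip_apply, LinearMap.id_apply, map_add, map_sub, map_smul]
    module
  exact LinearMap.congr_fun this v

/-- The structure of an isometry which stabilises `U ⊗ w` and commutes with its Siegel group. -/
theorem cent_struct (S : TSt t QU QW Q) [FiniteDimensional F U] {w w' : W} (hyp : Hyp QW w w')
    (hz : ∃ z, polar QW w z = 0 ∧ QW z ≠ 0) {c : V ≃ₗ[F] V} (hc : c ∈ O Q)
    (hcw : ∀ u, ∃ u', c (t u w) = t u' w)
    (hcomm : ∀ (y : W) (hy : polar QW w y = 0), c * rW S.ten (siegel QW w y hyp.left hy) =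
      rW S.ten (siegel QW w y hyp.left hy) * c) :
    ∃ (α : U ≃ₗ[F] U) (r : V ≃ₗ[F] V), α ∈ O QU ∧ r ∈ O Q ∧ c = rU S.ten α * r ∧ ∃ τ, IsR t QW w r τ := by
  have hw0 := hyp.left_ne
  let β : U →ₗ[F] U := S.cw w ∘ₗ (c : V →ₗ[F] V) ∘ₗ t.flip w'
  have hβ : ∀ u, β u = S.cw w (c (t u w')) := fun u => rfl
  -- the action on `U ⊗ w^⊥`
  have hact : ∀ u y, polar QW w y = 0 → ∃ u', c (t u y) = t (β u) y + t u' w := by
    intro u y hy
    have h1 := LinearEquiv.congr_fun (hcomm y hy) (t u w')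
    rw [LinearEquiv.mul_apply, LinearEquiv.mul_apply] at h1
    have h2 := siegel_sub S hyp.left hy (c (t u w'))
    have h3 := siegel_sub S hyp.left hy (t u w')
    have h4 : c (rW S.ten (siegel QW w y hyp.left hy) (t u w') - t u w') =
        rW S.ten (siegel QW w y hyp.left hy) (c (t u w')) - c (t u w') := by rw [map_sub, h1]
    rw [h2, h3, ← hβ, S.cw_t, S.cw_t, hyp.pair, one_smul] at h4
    obtain ⟨u2, hu2⟩ := hcw u
    simp only [map_sub, map_smul, LinearMap.smul_apply, hu2] at h4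
    refine ⟨polar QW y w' • u2 + QW y • u2 - S.cw y (c (t u w')) - QW y • β u, ?_⟩
    have h5 : c (t u y) = (c (t u y) - polar QW y w' • t u2 w - QW y • t u2 w) + polar QW y w' • t u2 w +
        QW y • t u2 w := by abel
    rw [h5, h4]
    simp only [map_add, map_sub, map_smul, LinearMap.add_apply, LinearMap.sub_apply, LinearMap.smul_apply]
    module
  obtain ⟨z, hz1, hz2⟩ := hz
  have hβO : ∀ u u', polar QU (β u) (β u') = polar QU u u' := by
    intro u u'
    obtain ⟨a, ha⟩ := hact u z hz1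
    obtain ⟨b, hb⟩ := hact u' z hz1
    have h1 := polar_map hc (t u z) (t u' z)
    rw [ha, hb] at h1
    simp only [polar_add_left, polar_add_right, S.pol, hz1, polar_comm QW z w, polar_self_of_sing hyp.left,
      mul_zero, add_zero] at h1
    have h3 : polar QW z z ≠ 0 := by rw [polar_self']; exact mul_ne_zero S.two hz2
    exact mul_right_cancel₀ h3 h1
  have hβinj : Function.Injective β := by
    rw [← LinearMap.ker_eq_bot, LinearMap.ker_eq_bot']
    intro u hu
    refine S.ndU u fun y => ?_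
    rw [← hβO, hu, polar_zero_left]
  have hβsurj := LinearMap.injective_iff_surjective.1 hβinj
  have hβw : ∀ u, c (t u w) = t (β u) w := by
    intro u
    obtain ⟨u1, hu1⟩ := hcw u
    rw [hu1]
    congr 2
    refine S.eq_of_polar fun y => ?_
    obtain ⟨y', rfl⟩ := hβsurj y
    rw [hβO]
    have h1 := polar_map hc (t u w) (t y' w')
    rw [hu1, S.pol, hyp.pair, mul_one, polar_comm, S.polar_cw, ← hβ, polar_comm] at h1
    exact h1
  let α : U ≃ₗ[F] U := LinearEquiv.ofInjectiveEndo β hβinj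
  have hα : ∀ u, α u = β u := fun u => rfl
  have hαO : α ∈ O QU := mem_O_of_polar S.two fun x y => by rw [hα, hα, hβO]
  refine ⟨α, (rU S.ten α)⁻¹ * c, hαO, (O Q).mul_mem ((O Q).inv_mem (S.rU_mem_O hαO)) hc,
    by rw [mul_inv_cancel_left], ?_⟩
  have hi : ∀ u z, (rU S.ten α)⁻¹ (t (α u) z) = t u z := by
    intro u z
    rw [← rU_apply S.ten]
    exact LinearEquiv.symm_apply_apply _ _
  refine isR_of S hyp ?_ ?_
  · intro u
    show (rU S.ten α)⁻¹ (c (t u w)) = _
    rw [hβw, ← hα, hi]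
  · intro u y hy
    obtain ⟨u', hu'⟩ := hact u y hy
    obtain ⟨u'', hu''⟩ := hβsurj u'
    refine ⟨u'', ?_⟩
    show (rU S.ten α)⁻¹ (c (t u y)) = _
    rw [hu', map_add, ← hα, hi, ← hu'', ← hα, hi]

end gen

end Cfsg.Agent.H883.C7
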