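import Cfsg.Agent.H883.C7.Slots

/-!
# Part (L): property (D) for thin overgroups
-/

set_option autoImplicit false
set_option linter.unusedSectionVars false
set_option linter.unusedSimpArgs false

namespace Cfsg.Agent.H883.C7

open QuadraticMap hiding proj
open Cfsg.Agent.LieClassical.OrthCore Cfsg.Agent.LieClassical.OrthTrans
open Cfsg.Agent.H882.Ten Cfsg.Agent.LieClassical.OrthFinite
open scoped commutatorElement

variable {F : Type*} [Field F] {κ : Type*} [Fintype κ] [DecidableEq κ] {ι : Type*} [Fintype ι] [DecidableEq ι]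
  {q : QuadraticForm F (κ → F)} {M : Subgroup (((ι → κ) → F) ≃ₗ[F] ((ι → κ) → F))}

/-- `Carries` is symmetric by dimension. -/
theorem Carries.symm {x : κ → F} (hx0 : x ≠ 0) {g : ((ι → κ) → F) ≃ₗ[F] ((ι → κ) → F)} {i j : ι}
    (h : Carries g i j) : Carries g⁻¹ j i := by
  choose φ hφ using h
  have hgi : ∀ v, g (g⁻¹ v) = v := fun v => LinearEquiv.apply_symm_apply g v
  have hgi' : ∀ v, g⁻¹ (g v) = v := fun v => LinearEquiv.symm_apply_apply g v
  have huniq : ∀ f f', (∀ v, g (sl i f v) = sl j f' (g v)) → φ f = f' := by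
    intro f f' h'
    refine sl_inj hx0 (i := j) (LinearMap.ext fun v => ?_)
    have h1 := hφ f (g⁻¹ v)
    have h2 := h' (g⁻¹ v)
    rw [hgi] at h1 h2
    rw [← h1, h2]
  let Φ : Module.End F (κ → F) →ₗ[F] Module.End F (κ → F) :=
    { toFun := φ
      map_add' := fun a b => huniq _ _ fun v => by
        rw [sl_add, sl_add, LinearMap.add_apply, LinearMap.add_apply, map_add, hφ, hφ]
      map_smul' := fun c a => huniq _ _ fun v => by
        rw [sl_smul, RingHom.id_apply, sl_smul, LinearMap.smul_apply, LinearMap.smul_apply, map_smul, hφ] }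
  have hinj : Function.Injective Φ := by
    intro a b hab
    refine sl_inj hx0 (i := i) (LinearMap.ext fun v => ?_)
    have h1 := hφ a v
    have h2 := hφ b v
    have h3 : φ a = φ b := hab
    rw [h3, ← h2] at h1
    exact g.injective h1
  have hsurj : Function.Surjective Φ := LinearMap.injective_iff_surjective.1 hinj
  intro f
  obtain ⟨f', hf'⟩ := hsurj f
  refine ⟨f', fun v => ?_⟩
  have h1 := hφ f' (g⁻¹ v)
  rw [hgi] at h1
  have h3 : φ f' = f := hf'
  rw [h3] at h1
  rw [← h1, hgi']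

theorem dprop_of [Finite F] (H : Hyp7 q) (ht : 2 ≤ Fintype.card ι) (hM : Over q M) (hrad : RadP q M)
    (hZ : ZP q M) (hS : SP q M)
    (hcomm : ∀ (l : ι) (u z : κ → F) (hu : q u = 0) (hz : polar q u z = 0),
      slE l (siegel q u z hu hz) ∈ ⁅M ⊓ (slE (F := F) (κ := κ) l).range, M ⊓ (slE (F := F) (κ := κ) l).range⁆) :
    DProp q M := by
  intro g hg i j w w' hw0 hw'0 hqw hgw
  have h2 := H.two
  have hq := H.nd
  have hG := H.good ht
  have hle := hM.le_O
  have Si := tst (ι := ι) h2 hq i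
  have Sj := tst (ι := ι) h2 hq j
  have hgi : ∀ v, g (g⁻¹ v) = v := fun v => LinearEquiv.apply_symm_apply g v
  have hgi' : ∀ v, g⁻¹ (g v) = v := fun v => LinearEquiv.symm_apply_apply g v
  -- the linear bijection `L`
  obtain ⟨v0, hv0⟩ := hq.exists_polar_eq hw'0 1
  have hv0' : polar q v0 w' = 1 := by rw [polar_comm]; exact hv0
  let L : (({l // l ≠ i} → κ) → F) →ₗ[F] (({l // l ≠ j} → κ) → F) :=
    Sj.cw v0 ∘ₗ (g : Module.End F ((ι → κ) → F)) ∘ₗ (ten F κ i).flip w
  have hL : ∀ a, g (ten F κ i a w) = ten F κ j (L a) w' := by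
    intro a
    obtain ⟨b, hb⟩ := hgw a
    have : L a = b := by
      show Sj.cw v0 (g (ten F κ i a w)) = b
      rw [hb, Sj.cw_t, hv0', one_smul]
    rw [this, hb]
  have hLinj : Function.Injective L := by
    rw [← LinearMap.ker_eq_bot, LinearMap.ker_eq_bot']
    intro a ha
    have h1 := hL a
    rw [ha, map_zero, LinearMap.zero_apply] at h1
    have h3 : ten F κ i a w = 0 := by
      rw [← map_zero g] at h1
      exact g.injective h1
    exact eq_zero_of_t (isTen F κ i) h3 hw0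
  have hLsurj : Function.Surjective L := by
    refine (LinearMap.injective_iff_surjective_of_finrank_eq_finrank ?_).1 hLinj
    rw [Module.finrank_fintype_fun_eq_card, Module.finrank_fintype_fun_eq_card, Fintype.card_fun,
      Fintype.card_fun]
    congr 1
    simp
  -- `w'` is singular
  have hqw' : q w' = 0 := by
    obtain ⟨b, hb⟩ : ∃ b, QT q {l // l ≠ j} b ≠ 0 := by
      by_contra hcon
      push Not at hcon
      have hne : tp (fun _ : {l // l ≠ j} => w) ≠ 0 := tp_ne_zero fun _ => hw0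
      obtain ⟨y0, hy0⟩ := Sj.ndU.exists_polar_eq hne 1
      rw [polar, hcon, hcon, hcon] at hy0
      simp at hy0
    obtain ⟨a, rfl⟩ := hLsurj b
    have h1 : QT q ι (g (ten F κ i a w)) = QT q ι (ten F κ i a w) := hle hg _
    rw [hL, Sj.Q_t, Si.sing_right a hqw] at h1
    have h3 := (mul_eq_zero.1 h1).resolve_left h2
    exact (mul_eq_zero.1 h3).resolve_left hb
  obtain ⟨w1, hyp1⟩ := LieClassical.OrthTrans.exists_hyp hq hqw hw0
  obtain ⟨w1', hyp1'⟩ := LieClassical.OrthTrans.exists_hyp hq hqw' hw'0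
  have hdz : ∃ z : κ → F, polar q w' z = 0 ∧ q z ≠ 0 := by
    obtain ⟨z, hz1, _, hz3⟩ := exists_nonsing_perp hq
      (by rw [Module.finrank_fintype_fun_eq_card]; exact H.three) hyp1'
    exact ⟨z, hz1, hz3⟩
  -- the radical of slot `j` is carried into the radical of slot `i`
  have hD : ∀ (x : κ → F) (hx : polar q w' x = 0), ∃ (y : κ → F) (hy : polar q w y = 0),
      g⁻¹ * slE j (siegel q w' x hqw' hx) * g = slE i (siegel q w y hqw hy) := by
    intro x hx
    have hsM := hM.siegel_mem h2 hG j hqw' hx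
    have hr : g⁻¹ * slE j (siegel q w' x hqw' hx) * g ∈ M := M.mul_mem (M.mul_mem (M.inv_mem hg) hsM) hg
    have hsw : siegel q w' x hqw' hx w' = w' := by
      rw [siegel_apply, polar_self_of_sing hqw', polar_comm q x w', hx]; simp
    obtain ⟨τ, hτ⟩ := isR_of Si hyp1 (g := g⁻¹ * slE j (siegel q w' x hqw' hx) * g) (by
      intro a
      show g⁻¹ (slE j (siegel q w' x hqw' hx) (g (ten F κ i a w))) = ten F κ i a w
      rw [hL, slE_ten, hsw, ← hL, hgi']) (by
      intro a z hz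
      show ∃ u', g⁻¹ (slE j (siegel q w' x hqw' hx) (g (ten F κ i a z))) = ten F κ i a z + ten F κ i u' w
      -- `g (a ⊗ z)` is orthogonal to `A_j ⊗ w'`
      have h1 : Sj.cw w' (g (ten F κ i a z)) = 0 := by
        rw [Sj.cw_eq_zero_iff]
        intro b
        obtain ⟨a', rfl⟩ := hLsurj b
        rw [← hL, polar_map (hle hg), Si.pol, polar_comm q z w, hz, mul_zero]
      have h3 := siegel_sub Sj hqw' hx (g (ten F κ i a z))
      rw [h1, map_zero, LinearMap.zero_apply, LinearMap.zero_apply, smul_zero, zero_sub, sub_zero,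
        ← slE_eq_rW] at h3
      obtain ⟨a', ha'⟩ := hLsurj (Sj.cw x (g (ten F κ i a z)))
      refine ⟨-a', ?_⟩
      have h5 : slE j (siegel q w' x hqw' hx) (g (ten F κ i a z)) =
          g (ten F κ i a z) - g (ten F κ i a' w) := by
        rw [hL, ha', sub_eq_add_neg]
        exact sub_eq_iff_eq_add'.1 h3
      rw [h5, map_sub, hgi', hgi', map_neg, LinearMap.neg_apply, sub_eq_add_neg])
    exact hrad i w hqw hw0 _ hr τ hτ
  -- structure of the conjugates of the elements of the slots `l ≠ i`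
  have hstr : ∀ l, l ≠ i → ∀ k ∈ M ⊓ (slE (F := F) (κ := κ) l).range, ∃ (b s : ((ι → κ) → F) ≃ₗ[F] ((ι → κ) → F))
      (α : (({l // l ≠ j} → κ) → F) ≃ₗ[F] (({l // l ≠ j} → κ) → F)) (ζ : Module.End F (({l // l ≠ j} → κ) → F))
      (x : κ → F) (hx : polar q w' x = 0),
      b ∈ M ∧ α ∈ O (QT q {l // l ≠ j}) ∧ IsB (ten F κ j) q w' b α ζ ∧
      s = rW (isTen F κ j) (siegel q w' x hqw' hx) ∧ g * k * g⁻¹ = b * s := by
    rintro l hl k ⟨hkM, ⟨f, rfl⟩⟩
    have hcM : g * slE l f * g⁻¹ ∈ M := M.mul_mem (M.mul_mem hg hkM) (M.inv_mem hg)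
    obtain ⟨α, r, hα, hr, hcr, τ, hτ⟩ := cent_struct Sj hyp1' hdz (hle hcM) (by
      intro b
      obtain ⟨a, rfl⟩ := hLsurj b
      have h1 : slE l f (ten F κ i a w) = ten F κ i (slE (⟨l, hl⟩ : {l // l ≠ i}) f a) w :=
        slE_sub_ten i ⟨l, hl⟩ f a w
      refine ⟨L (slE (⟨l, hl⟩ : {l // l ≠ i}) f a), ?_⟩
      show g (slE l f (g⁻¹ (ten F κ j (L a) w'))) = _
      rw [← hL, hgi', h1, hL]) (by
      intro x hx
      obtain ⟨y, hy, hxy⟩ := hD x hx
      rw [← slE_eq_rW]
      have h1 : slE j (siegel q w' x hqw' hx) = g * slE i (siegel q w y hqw hy) * g⁻¹ := by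
        rw [← hxy]; group
      rw [h1]
      have h3 := slE_comm (F := F) (κ := κ) hl f (siegel q w y hqw hy)
      calc g * slE l f * g⁻¹ * (g * slE i (siegel q w y hqw hy) * g⁻¹)
          = g * (slE l f * slE i (siegel q w y hqw hy)) * g⁻¹ := by group
        _ = g * (slE i (siegel q w y hqw hy) * slE l f) * g⁻¹ := by rw [h3]
        _ = _ := by group)
    have hscal := hS j w' hw'0 hqw' _ hcM α r τ hcr hτ
    have : Nontrivial (({l // l ≠ j} → κ) → F) := ⟨tp (fun _ => w), 0, tp_ne_zero fun _ => hw0⟩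
    obtain ⟨x, hx, ζ, hB⟩ := isB_of_scalar Sj (nondeg_QT h2 hq) hqw' hw'0 hcr hr hτ hscal
    refine ⟨_, _, α, ζ, x, hx, ?_, hα, hB, rfl, by group⟩
    refine M.mul_mem hcM (M.inv_mem ?_)
    rw [← slE_eq_rW]
    exact hM.siegel_mem h2 hG j hqw' hx
  -- commutators
  have hcj : ∀ l, l ≠ i → ∀ k ∈ ⁅M ⊓ (slE (F := F) (κ := κ) l).range, M ⊓ (slE (F := F) (κ := κ) l).range⁆,
      g * k * g⁻¹ ∈ (rU (isTen F κ j)).range := by
    intro l hl
    have hle' : ⁅M ⊓ (slE (F := F) (κ := κ) l).range, M ⊓ (slE (F := F) (κ := κ) l).range⁆ ≤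
        (rU (isTen F κ j)).range.comap (MulAut.conj g).toMonoidHom := by
      rw [Subgroup.commutator_le]
      intro k1 hk1 k2 hk2
      rw [Subgroup.mem_comap]
      show g * ⁅k1, k2⁆ * g⁻¹ ∈ _
      obtain ⟨b1, s1, α1, ζ1, x1, hx1, hb1, hα1, hB1, hs1, hc1⟩ := hstr l hl k1 hk1
      obtain ⟨b2, s2, α2, ζ2, x2, hx2, hb2, hα2, hB2, hs2, hc2⟩ := hstr l hl k2 hk2
      have hbs : ∀ {b : ((ι → κ) → F) ≃ₗ[F] ((ι → κ) → F)} {α ζ}, IsB (ten F κ j) q w' b α ζ →
          ∀ {x : κ → F} (hx : polar q w' x = 0), b * rW (isTen F κ j) (siegel q w' x hqw' hx) =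
            rW (isTen F κ j) (siegel q w' x hqw' hx) * b := fun hB _ hx => isB_comm_siegel Sj hqw' hx hB
      have e12 : b1 * s2 = s2 * b1 := by rw [hs2]; exact hbs hB1 hx2
      have e21 : b2 * s1 = s1 * b2 := by rw [hs1]; exact hbs hB2 hx1
      have e11 : b1 * s1 = s1 * b1 := by rw [hs1]; exact hbs hB1 hx1
      have e22 : b2 * s2 = s2 * b2 := by rw [hs2]; exact hbs hB2 hx2
      have ess : s1 * s2 = s2 * s1 := by
        rw [hs1, hs2, ← map_mul, ← map_mul, siegel_mul hqw' hx1 hx2 (by rw [polar_add_right, hx1, hx2, add_zero]),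
          siegel_mul hqw' hx2 hx1 (by rw [polar_add_right, hx1, hx2, add_zero])]
        congr 1
        ext v : 1
        rw [siegel_apply, siegel_apply, add_comm x1 x2]
      have e1 : g * ⁅k1, k2⁆ * g⁻¹ = ⁅b1, b2⁆ := by
        have h3 : g * ⁅k1, k2⁆ * g⁻¹ = ⁅g * k1 * g⁻¹, g * k2 * g⁻¹⁆ := by
          rw [commutatorElement_def, commutatorElement_def]; group
        rw [h3, hc1, hc2, commutatorElement_def, commutatorElement_def, mul_inv_rev, mul_inv_rev]
        have c1 : Commute s1 b2 := e21.symm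
        have c2 : Commute s2 b1 := e12.symm
        have c3 : Commute s1 s2 := ess
        have c4 : Commute s1 b1 := e11.symm
        have c5 : Commute s2 b2 := e22.symm
        calc b1 * s1 * (b2 * s2) * (s1⁻¹ * b1⁻¹) * (s2⁻¹ * b2⁻¹)
            = b1 * (s1 * (b2 * s2) * s1⁻¹) * b1⁻¹ * (s2⁻¹ * b2⁻¹) := by group
          _ = b1 * (b2 * s2) * b1⁻¹ * (s2⁻¹ * b2⁻¹) := by
              rw [(c1.mul_right c3).eq, mul_assoc (b2 * s2) s1, mul_inv_cancel, mul_one]
          _ = b1 * b2 * (s2 * b1⁻¹) * s2⁻¹ * b2⁻¹ := by group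
          _ = b1 * b2 * b1⁻¹ * b2⁻¹ := by
              rw [c2.inv_right.eq]; group
      rw [e1]
      have hB : ∃ ζ, IsB (ten F κ j) q w' ⁅b1, b2⁆ ⁅α1, α2⁆ ζ := by
        rw [commutatorElement_def, commutatorElement_def]
        exact ⟨_, isB_mul hqw' (isB_mul hqw' (isB_mul hqw' hB1 hB2) (isB_inv Sj hqw' hB1)) (isB_inv Sj hqw' hB2)⟩
      obtain ⟨ζ, hB⟩ := hB
      have hbM : ⁅b1, b2⁆ ∈ M := by
        rw [commutatorElement_def]
        exact M.mul_mem (M.mul_mem (M.mul_mem hb1 hb2) (M.inv_mem hb1)) (M.inv_mem hb2)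
      have h0 := hZ j w' hw'0 hqw' _ hbM _ _ (Subgroup.commutator_mem_commutator hα1 hα2) hB
      refine ⟨⁅α1, α2⁆, ?_⟩
      refine ext_t' Sj.ten fun a u => ?_
      rw [rU_apply, hB, h0]
      simp
    intro k hk
    exact hle' hk
  -- the slot algebra
  have hc : Carries g⁻¹ j i := by
    intro f
    obtain ⟨f', hf'⟩ := comm_slots h2 hq H.three hqw hw0 i
      (T := ((g⁻¹ : ((ι → κ) → F) ≃ₗ[F] ((ι → κ) → F)) : Module.End F ((ι → κ) → F)) * sl j f *
        (g : Module.End F ((ι → κ) → F))) (by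
      intro l hl u z hu hz v
      show g⁻¹ (sl j f (g (slE l (siegel q u z hu hz) v))) = slE l (siegel q u z hu hz) (g⁻¹ (sl j f (g v)))
      obtain ⟨β, hβ⟩ := hcj l hl _ (hcomm l u z hu hz)
      have h1 : ∀ v, g (slE l (siegel q u z hu hz) v) = rU (isTen F κ j) β (g v) := by
        intro v
        rw [hβ]
        show _ = g (slE l (siegel q u z hu hz) (g⁻¹ (g v)))
        rw [hgi']
      have h3 : ∀ v, sl j f (rU (isTen F κ j) β v) = rU (isTen F κ j) β (sl j f v) := by
        intro v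
        have : sl j f ∘ₗ ((rU (isTen F κ j) β : ((ι → κ) → F) ≃ₗ[F] ((ι → κ) → F)) : Module.End F ((ι → κ) → F)) =
            ((rU (isTen F κ j) β : ((ι → κ) → F) ≃ₗ[F] ((ι → κ) → F)) : Module.End F ((ι → κ) → F)) ∘ₗ sl j f := by
          refine ext_t Sj.ten fun a u => ?_
          simp only [LinearMap.comp_apply, LinearEquiv.coe_coe]
          rw [rU_apply, sl_ten, sl_ten, rU_apply]
        exact LinearMap.congr_fun this v
      rw [h1, h3]
      refine g.injective ?_
      rw [hgi, h1, hgi])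
    refine ⟨f', fun v => ?_⟩
    have h1 := hf' (g⁻¹ v)
    have h3 : g⁻¹ (sl j f (g (g⁻¹ v))) = sl i f' (g⁻¹ v) := h1
    rwa [hgi] at h3
  have := hc.symm hw0
  rwa [inv_inv] at this

end Cfsg.Agent.H883.C7
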