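import Cfsg.Agent.H883.C7.LIface

/-!
# Interface of part (G): with (D) every element permutes the slot algebras
-/

set_option autoImplicit false
set_option linter.unusedSectionVars false

namespace Cfsg.Agent.H883.C7

open QuadraticMap hiding proj
open Cfsg.Agent.LieClassical.OrthCore Cfsg.Agent.LieClassical.OrthTrans
open Cfsg.Agent.H882.Ten Cfsg.Agent.LieClassical.OrthFinite

variable {F : Type*} [Field F] {κ : Type*} [Fintype κ] [DecidableEq κ] {ι : Type*} [Fintype ι] [DecidableEq ι]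

/-- Conjugation as a linear map. -/
def cjL {V : Type*} [AddCommGroup V] [Module F V] (g : V ≃ₗ[F] V) : Module.End F V →ₗ[F] Module.End F V where
  toFun := cj g
  map_add' := cj_add' g
  map_smul' := cj_smul' g

/-- The algebra `g 𝒜_j g⁻¹`, `𝒜_j = sl j (End U)`. -/
noncomputable def Al (g : ((ι → κ) → F) ≃ₗ[F] ((ι → κ) → F)) (j : ι) : Submodule F (Module.End F ((ι → κ) → F)) :=
  (LinearMap.range (slA (F := F) (κ := κ) j).toLinearMap).map (cjL g)

theorem mem_Al {g : ((ι → κ) → F) ≃ₗ[F] ((ι → κ) → F)} {j : ι} {T : Module.End F ((ι → κ) → F)} :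
    T ∈ Al g j ↔ ∃ f : Module.End F (κ → F), cj g (sl j f) = T := by
  constructor
  · rintro ⟨_, ⟨f, rfl⟩, rfl⟩
    exact ⟨f, rfl⟩
  · rintro ⟨f, rfl⟩
    exact ⟨_, ⟨f, rfl⟩, rfl⟩

theorem Al_map (h g : ((ι → κ) → F) ≃ₗ[F] ((ι → κ) → F)) (j : ι) : (Al g j).map (cjL h) = Al (h * g) j := by
  ext T
  rw [mem_Al]
  constructor
  · rintro ⟨S, hS, rfl⟩
    obtain ⟨f, rfl⟩ := mem_Al.1 hS
    exact ⟨f, (cj_cj h g _).symm⟩
  · rintro ⟨f, rfl⟩
    exact ⟨_, mem_Al.2 ⟨f, rfl⟩, cj_cj h g _⟩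

theorem carries_iff {g : ((ι → κ) → F) ≃ₗ[F] ((ι → κ) → F)} {i j : ι} : Carries g i j ↔ Al g i ≤ Al 1 j := by
  constructor
  · intro h T hT
    obtain ⟨f, rfl⟩ := mem_Al.1 hT
    obtain ⟨f', hf'⟩ := h f
    refine mem_Al.2 ⟨f', ?_⟩
    rw [one_cj]
    refine LinearMap.ext fun v => ?_
    rw [cj_apply, hf']
    congr 1
    exact (LinearEquiv.apply_symm_apply g v).symm
  · intro h f
    obtain ⟨f', hf'⟩ := mem_Al.1 (h (mem_Al.2 ⟨f, rfl⟩))
    refine ⟨f', fun v => ?_⟩
    rw [one_cj] at hf'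
    rw [hf', cj_apply]
    have : g⁻¹ (g v) = v := LinearEquiv.symm_apply_apply g v
    rw [this]

/-- Skew operators (the Lie algebra of the form). -/
def Skew {V : Type*} [AddCommGroup V] [Module F V] (Q : QuadraticForm F V) (X : Module.End F V) : Prop :=
  ∀ u v, polar Q (X u) v = - polar Q u (X v)

/-- Fixed point property: a Siegel element `d = slE i (siegel w y)`, `y` nonsingular, normalises `g 𝒜_j g⁻¹` only
if this is `𝒜_i` or commutes with `𝒜_i`. -/
def FixAll (q : QuadraticForm F (κ → F)) (M : Subgroup (((ι → κ) → F) ≃ₗ[F] ((ι → κ) → F))) : Prop :=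
  ∀ (i : ι) (w y : κ → F) (hw : q w = 0) (hy : polar q w y = 0), w ≠ 0 → q y ≠ 0 → ∀ g ∈ M, ∀ j : ι,
    (Al g j).map (cjL (slE i (siegel q w y hw hy))) ≤ Al g j →
    Al g j = Al 1 i ∨ ∀ a ∈ Al g j, ∀ f : Module.End F (κ → F), a * sl i f = sl i f * a

/-- The sum of the slot Lie algebras is `M`-invariant. -/
def SoInv (q : QuadraticForm F (κ → F)) (M : Subgroup (((ι → κ) → F) ≃ₗ[F] ((ι → κ) → F))) : Prop :=
  ∀ g ∈ M, ∀ (i : ι) (X : Module.End F (κ → F)), Skew q X →
    ∃ Y : ι → Module.End F (κ → F), (∀ l, Skew q (Y l)) ∧ cj g (sl i X) = ∑ l, sl l (Y l)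

/-- The partial trace over the slots `≠ i`. -/
noncomputable def pt (i : ι) : Module.End F ((ι → κ) → F) →ₗ[F] Module.End F (κ → F) where
  toFun T :=
    { toFun := fun u s => ∑ a : {l // l ≠ i} → κ, T (ten F κ i (Pi.single a 1) u) (ins i a s)
      map_add' := fun u u' => by
        funext s
        simp only [map_add, Pi.add_apply, Finset.sum_add_distrib]
      map_smul' := fun c u => by
        funext s
        simp only [map_smul, Pi.smul_apply, smul_eq_mul, Finset.mul_sum, RingHom.id_apply] }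
  map_add' T T' := by
    ext u s
    simp [Finset.sum_add_distrib]
  map_smul' c T := by
    ext u s
    simp [Finset.mul_sum]

/-- The partial trace to `g 𝒜_j g⁻¹`. -/
noncomputable def tA (g : ((ι → κ) → F) ≃ₗ[F] ((ι → κ) → F)) (j : ι) (z : Module.End F ((ι → κ) → F)) :
    Module.End F ((ι → κ) → F) := cj g (sl j (pt j (cj g⁻¹ z)))

/-- The operators `R ⊗ X`, `X` skew in slot `l`. -/
def Kl (q : QuadraticForm F (κ → F)) (l : ι) : Submodule F (Module.End F ((ι → κ) → F)) :=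
  Submodule.span F {T | ∃ (R : Module.End F ((ι → κ) → F)) (X : Module.End F (κ → F)),
    (∀ f, R * sl l f = sl l f * R) ∧ Skew q X ∧ T = R * sl l X}

end Cfsg.Agent.H883.C7
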