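import Cfsg.Agent.H883.C7.DMain
import Cfsg.Agent.H883.C7.GIface
import Cfsg.Agent.H69.C7.Purify
import Cfsg.Agent.H296.C7.RootPure
import Cfsg.Agent.H567.C7.RootGen
import Cfsg.Agent.H804.C7.ZGen
import Cfsg.Agent.H804.C7.SlComm
import Cfsg.Agent.H742.C7.Scal
import Cfsg.Agent.H829.C7.Wrap
import Cfsg.Agent.H829.C7.RadFour
import Cfsg.Agent.H900.C7.Glob
import Cfsg.Agent.H161.C7.Proper
import Cfsg.Agent.H889.C7O.ZExc

/-!
# Tensor powers of orthogonal spaces: the main theorem
-/

set_option autoImplicit false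
set_option linter.unusedSectionVars false

namespace Cfsg.Agent.H883.C7

open QuadraticMap hiding proj
open Cfsg.Agent.LieClassical.OrthCore Cfsg.Agent.LieClassical.OrthTrans
open Cfsg.Agent.H882.Ten Cfsg.Agent.LieClassical.OrthFinite

universe u v w

/-- (N) -/
theorem not_thin {F : Type*} [Field F] {κ : Type*} [Fintype κ] [DecidableEq κ] {ι : Type*} [Fintype ι]
    [DecidableEq ι] [Finite F] {q : QuadraticForm F (κ → F)} (H : Hyp7 q) (ht : 2 ≤ Fintype.card ι)
    {M : Subgroup (((ι → κ) → F) ≃ₗ[F] ((ι → κ) → F))} (hM : Over q M) (hN : ¬ Thin q M) : E (QT q ι) ≤ M := by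
  obtain ⟨c, i, j, hi, hj, hc, hP⟩ := H69.C7.purify H ht hM hN
  obtain ⟨a, j', z, ha, hz, hqz, h⟩ := H296.C7.root_of_pure H ht hM hi hj hc hP
  exact H567.C7.E_le_of_root H ht hM ha hz hqz h

section

variable {F : Type u} [Field F] [Finite F] {κ : Type v} [Fintype κ] [DecidableEq κ] {q : QuadraticForm F (κ → F)}

/-- A thin overgroup permutes the slots. -/
theorem thin_carries (H : Hyp7 q) (n : ℕ) : ∀ (ι : Type w) [Fintype ι] [DecidableEq ι], Fintype.card ι = n →
    2 ≤ n → ∀ M : Subgroup (((ι → κ) → F) ≃ₗ[F] ((ι → κ) → F)), Over q M → Thin q M →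
    ∀ g ∈ M, ∀ i, ∃ j, Carries g i j := by
  induction n using Nat.strong_induction_on with
  | _ n ih =>
  intro ι _ _ hn hn2 M hM hT
  have ht : 2 ≤ Fintype.card ι := by omega
  have h2 := H.two
  have hq := H.nd
  have hG := H.good ht
  have h3 := H.three
  have hRS : RadP q M ∧ SP q M := by
    rcases Nat.lt_or_ge (Fintype.card κ) 5 with h5 | h5
    · rcases (by omega : Fintype.card κ = 3 ∨ Fintype.card κ = 4) with hk | hk
      · have hrad := radP_three h2 hq hk (exists_sq_ne (H.five hk)) hG hM hT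
        exact ⟨hrad, H742.C7.sp_three H hk ht hM hrad⟩
      · have hrad := H829.C7.radP_four H hk ht hM hT
        exact ⟨hrad, H829.C7.sp_four H hk ht hM hT hrad⟩
    · have hrad := radP_five h2 hq h5 hG hM hT
      exact ⟨hrad, H742.C7.sp_five H h5 ht hM hrad⟩
  have hZ : ZP q M := by
    by_cases hgen : 7 ≤ Nat.card F ∨ 5 ≤ Fintype.card κ
    · exact H804.C7.zp_gen H hgen ht hM hT
    · push Not at hgen
      have hF : Nat.card F = 3 ∨ Nat.card F = 5 := by
        classical
        have : Fintype F := Fintype.ofFinite F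
        have h1 : ringChar F ≠ 2 := fun h => h2 (by
          have := ringChar.spec F 2
          rw [h] at this
          exact_mod_cast this.2 (dvd_refl 2))
        have h4 := FiniteField.odd_card_of_char_ne_two h1
        have h5 := Fintype.one_lt_card (α := F)
        rw [Nat.card_eq_fintype_card] at hgen ⊢
        omega
      refine H889.C7O.zp_exc H ht hM hT ?_ ?_
      · rcases (by omega : Fintype.card κ = 3 ∨ Fintype.card κ = 4) with hk | hk
        · have := H.five hk
          left
          exact ⟨hk, by omega⟩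
        · right
          exact ⟨hk, hF⟩
      · intro h3' j M' hM' hT'
        refine ih (n - 1) (by omega) {l // l ≠ j} (by simp [hn]) (by omega) M' hM' hT'
  exact H900.C7.glob7 H ht hM (dprop_of H ht hM hRS.1 hZ hRS.2 fun l u z hu hz => H804.C7.siegel_mem_comm H ht hM l hu hz)

/-- **Main theorem.** -/
theorem main (H : Hyp7 q) {ι : Type w} [Fintype ι] [DecidableEq ι] (ht : 2 ≤ Fintype.card ι)
    (M : Subgroup (((ι → κ) → F) ≃ₗ[F] ((ι → κ) → F))) (hM : Over q M) :
    E (QT q ι) ≤ M ∨ ∀ g ∈ M, ∀ i, ∃ j, Carries g i j := by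
  by_cases hT : Thin q M
  · exact Or.inr (thin_carries H _ ι rfl ht M hM hT)
  · exact Or.inl (not_thin H ht hM hT)

end

end Cfsg.Agent.H883.C7
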