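import Cfsg.Agent.H883.C7.Irr
import Cfsg.Agent.H882.Ten.RadFour

/-!
# The unipotent radical of the stabiliser of `A_i ⊗ w` in a thin overgroup
-/

set_option autoImplicit false
set_option linter.unusedSectionVars false
set_option linter.unusedSimpArgs false

namespace Cfsg.Agent.H883.C7

open QuadraticMap hiding proj
open Cfsg.Agent.LieClassical.OrthCore Cfsg.Agent.LieClassical.OrthTrans
open Cfsg.Agent.H882.Ten

section gen

variable {F : Type*} {U : Type*} {W : Type*} {V : Type*} [Field F] [AddCommGroup U] [Module F U]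
  [AddCommGroup W] [Module F W] [AddCommGroup V] [Module F V]
  {t : U →ₗ[F] W →ₗ[F] V} {QU : QuadraticForm F U} {QW : QuadraticForm F W} {Q : QuadraticForm F V}
  {X : Subgroup (V ≃ₗ[F] V)}

/-- All parameters are self-adjoint if the centre meets `X` trivially. -/
theorem tau_symm' (S : TSt t QU QW Q) (hle : X ≤ O Q) {w : W} (hw : QW w = 0) (hw0 : w ≠ 0)
    (hsg : ∀ (x : W) (hx : polar QW w x = 0), rW S.ten (siegel QW w x hw hx) ∈ X)
    (hZ : ∀ κ, InZ t QW X w κ → κ = 0) {τ : W →ₗ[F] U →ₗ[F] U} (h : InR t QW X w τ) {x : W}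
    (hx : polar QW w x = 0) (u u' : U) : polar QU (τ x u) u' = polar QU u (τ x u') := by
  obtain ⟨g, hg, hgτ⟩ := h
  obtain ⟨w', hyp⟩ := LieClassical.OrthTrans.exists_hyp S.ndW hw hw0
  obtain ⟨κ, hκ, hκ'⟩ := S.rad_comm hle hyp hg (hsg x hx) hgτ (S.isR_siegel hw hx)
  have h0 := hZ κ hκ
  have h1 := hκ' u
  rw [h0, LinearMap.zero_apply, rW_apply] at h1
  have h2 : t u (siegel QW w x hw hx w') - t u w' = t u (x - (polar QW x w' + QW x) • w) := by
    rw [← map_sub]
    congr 1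
    rw [siegel_apply, hyp.pair]
    module
  rw [h2, S.hat_t] at h1
  have h3 : ∀ v, S.hat (-(polarBilin QW x).smulRight (LinearMap.id : U →ₗ[F] U)) v = - S.cw x v := by
    have : S.hat (-(polarBilin QW x).smulRight (LinearMap.id : U →ₗ[F] U)) = - S.cw x := by
      refine ext_t S.ten fun u z => ?_
      rw [S.hat_t, LinearMap.neg_apply, LinearMap.neg_apply, LinearMap.neg_apply, S.cw_t]
      rfl
    intro v
    rw [this]; rfl
  rw [h3] at h1
  have h4 : τ (x - (polar QW x w' + QW x) • w) u = τ x u := by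
    rw [map_sub, map_smul, LinearMap.sub_apply, LinearMap.smul_apply, S.tau_self hw hw0 hgτ]
    simp
  rw [h4] at h1
  have h5 := S.cw_s hle hyp hg hgτ hx u u'
  have h6 : τ x u = - S.cw x (g (t u w') - t u w') := by
    rw [eq_neg_iff_add_eq_zero]
    rw [sub_neg_eq_add] at h1
    exact h1.symm
  rw [h6, polar_neg_left, h5, neg_neg]

/-- Commuting parameters. -/
theorem tau_commute' (S : TSt t QU QW Q) (hle : X ≤ O Q) {w : W} (hw : QW w = 0) (hw0 : w ≠ 0)
    (hZ : ∀ κ, InZ t QW X w κ → κ = 0) {α β : U →ₗ[F] U} {y0 y1 : W} (hy0 : polar QW w y0 = 0)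
    (hy1 : polar QW w y1 = 0) (hy : polar QW y0 y1 ≠ 0)
    (h : InR t QW X w ((polarBilin QW y0).smulRight α)) (h' : InR t QW X w ((polarBilin QW y1).smulRight β))
    (hα : ∀ u u', polar QU (α u) u' = polar QU u (α u')) (hβ : ∀ u u', polar QU (β u) u' = polar QU u (β u'))
    (u : U) : α (β u) = β (α u) := by
  obtain ⟨g, hg, hgτ⟩ := h
  obtain ⟨g', hg', hgτ'⟩ := h'
  obtain ⟨w', hyp⟩ := LieClassical.OrthTrans.exists_hyp S.ndW hw hw0
  obtain ⟨κ, hκ, hκ'⟩ := S.rad_comm hle hyp hg hg' hgτ hgτ'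
  have h0 := hZ κ hκ
  have h1 := hκ' u
  have h3 : ∀ (γ : U →ₗ[F] U) (x : W) v, S.hat ((polarBilin QW x).smulRight γ) v = γ (S.cw x v) := by
    intro γ x
    have : S.hat ((polarBilin QW x).smulRight γ) = γ ∘ₗ S.cw x := by
      refine ext_t S.ten fun u z => ?_
      rw [S.hat_t, LinearMap.comp_apply, S.cw_t, map_smul]
      rfl
    intro v
    rw [this]; rfl
  rw [h0, LinearMap.zero_apply, h3, h3] at h1
  have h4 : S.cw y0 (g' (t u w') - t u w') = - (polar QW y0 y1 • β u) := by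
    refine S.eq_of_polar fun y => ?_
    rw [S.cw_s hle hyp hg' hgτ' hy0 u y, LinearMap.smulRight_apply, LinearMap.smul_apply, polar_smul_right,
      polar_neg_left, polar_smul_left, hβ, polarBilin_apply_apply, polar_comm QW y1 y0]
  have h5 : S.cw y1 (g (t u w') - t u w') = - (polar QW y0 y1 • α u) := by
    refine S.eq_of_polar fun y => ?_
    rw [S.cw_s hle hyp hg hgτ hy1 u y, LinearMap.smulRight_apply, LinearMap.smul_apply, polar_smul_right,
      polar_neg_left, polar_smul_left, hα, polarBilin_apply_apply]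
  rw [h4, h5, map_neg, map_neg, map_smul, map_smul] at h1
  have h6 : polar QW y0 y1 • (α (β u) - β (α u)) = 0 := by
    rw [smul_sub]
    have : polar QW y0 y1 • α (β u) - polar QW y0 y1 • β (α u) =
      -(-(polar QW y0 y1 • α (β u)) - -(polar QW y0 y1 • β (α u))) := by abel
    rw [this, ← h1, neg_zero]
  exact sub_eq_zero.1 ((smul_eq_zero.1 h6).resolve_left hy)

/-- Scalar parameters: the element is a Siegel element of `W`, up to the centre. -/
theorem eq_siegel_mul (S : TSt t QU QW Q) [FiniteDimensional F U] [FiniteDimensional F W] (hle : X ≤ O Q)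
    (hQ : Nondeg Q) [Nontrivial U] {w : W} (hw : QW w = 0) (hw0 : w ≠ 0) {g : V ≃ₗ[F] V} (hg : g ∈ X)
    {τ : W →ₗ[F] U →ₗ[F] U} (hgτ : IsR t QW w g τ)
    (hsg : ∀ (x : W) (hx : polar QW w x = 0), rW S.ten (siegel QW w x hw hx) ∈ X)
    (hscal : ∀ y, polar QW w y = 0 → ∃ c : F, ∀ u, τ y u = c • u) :
    ∃ (x : W) (hx : polar QW w x = 0) (κ : U →ₗ[F] U), g * (rW S.ten (siegel QW w x hw hx))⁻¹ ∈ X ∧
      ∀ u z, (g * (rW S.ten (siegel QW w x hw hx))⁻¹) (t u z) = t u z + polar QW w z • t (κ u) w := by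
  obtain ⟨w', hyp⟩ := LieClassical.OrthTrans.exists_hyp S.ndW hw hw0
  obtain ⟨u0, hu0⟩ := exists_ne (0 : U)
  obtain ⟨u0', hu0'⟩ := S.ndU.exists_polar_eq hu0 1
  obtain ⟨x, hx⟩ := riesz S.ndW (-(((polarBilin QU).flip u0') ∘ₗ (LinearMap.applyₗ u0) ∘ₗ τ))
  have hx' : ∀ z, polar QW x z = - polar QU (τ z u0) u0' := fun z => hx z
  have hxw : polar QW w x = 0 := by
    rw [polar_comm, hx', S.tau_self hw hw0 hgτ, polar_zero_left, neg_zero]
  have hval : ∀ z, polar QW w z = 0 → ∀ u, τ z u = -(polar QW x z) • u := by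
    intro z hz u
    obtain ⟨c, hc⟩ := hscal z hz
    rw [hx', hc, hc, polar_smul_left, hu0']
    simp
  refine ⟨x, hxw, ?_⟩
  set g0 := rW S.ten (siegel QW w x hw hxw) with hg0
  have hg0X : g0 ∈ X := hsg x hxw
  have h3 := S.isR_mul_inv hgτ (S.isR_siegel hw hxw)
  have h4 : ∀ u z, polar QW w z = 0 → (g * g0⁻¹) (t u z) = t u z := by
    intro u z hz
    rw [h3.2 u z hz]
    have : (τ - -(polarBilin QW x).smulRight (LinearMap.id : U →ₗ[F] U)) z u = 0 := by
      simp only [LinearMap.sub_apply, LinearMap.neg_apply, LinearMap.smulRight_apply, LinearMap.smul_apply,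
        LinearMap.id_apply, polarBilin_apply_apply, hval z hz]
      module
    rw [this, map_zero, LinearMap.zero_apply, add_zero]
  have h5 : g * g0⁻¹ ∈ X := X.mul_mem hg (X.inv_mem hg0X)
  obtain ⟨κ, hκ⟩ := S.inZ_of_triv hle hQ hyp h5 h4
  exact ⟨κ, h5, hκ⟩

theorem eq_siegel (S : TSt t QU QW Q) [FiniteDimensional F U] [FiniteDimensional F W] (hle : X ≤ O Q)
    (hQ : Nondeg Q) [Nontrivial U] {w : W} (hw : QW w = 0) (hw0 : w ≠ 0) {g : V ≃ₗ[F] V} (hg : g ∈ X)
    {τ : W →ₗ[F] U →ₗ[F] U} (hgτ : IsR t QW w g τ)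
    (hsg : ∀ (x : W) (hx : polar QW w x = 0), rW S.ten (siegel QW w x hw hx) ∈ X)
    (hZ : ∀ κ, InZ t QW X w κ → κ = 0)
    (hscal : ∀ y, polar QW w y = 0 → ∃ c : F, ∀ u, τ y u = c • u) :
    ∃ (x : W) (hx : polar QW w x = 0), g = rW S.ten (siegel QW w x hw hx) := by
  obtain ⟨x, hx, κ, h5, hκ⟩ := eq_siegel_mul S hle hQ hw hw0 hg hgτ hsg hscal
  have hκ0 := hZ κ ⟨_, h5, hκ⟩
  refine ⟨x, hx, ?_⟩
  have h6 : g * (rW S.ten (siegel QW w x hw hx))⁻¹ = 1 := by
    refine ext_t' S.ten fun u z => ?_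
    rw [hκ, hκ0]
    simp
  exact mul_inv_eq_one.1 h6

/-- `IsR` only depends on the values on `w^⊥`. -/
theorem isR_congr {w : W} {g : V ≃ₗ[F] V} {τ τ' : W →ₗ[F] U →ₗ[F] U} (h : IsR t QW w g τ)
    (hτ : ∀ z, polar QW w z = 0 → τ z = τ' z) : IsR t QW w g τ' :=
  ⟨h.1, fun u z hz => by rw [h.2 u z hz, hτ z hz]⟩

end gen

variable {F : Type*} [Field F] {κ : Type*} [Fintype κ] [DecidableEq κ] {ι : Type*} [Fintype ι] [DecidableEq ι]
  {q : QuadraticForm F (κ → F)} {M : Subgroup (((ι → κ) → F) ≃ₗ[F] ((ι → κ) → F))}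

theorem opE_isMono (f : ι → ((κ → F) ≃ₗ[F] (κ → F))) : IsMono (opE f) := ⟨f, 1, by rw [map_one, mul_one]⟩

theorem slE_isMono (i : ι) (f : (κ → F) ≃ₗ[F] (κ → F)) : IsMono (slE (F := F) (κ := κ) i f) := by
  rw [slE_eq]; exact opE_isMono _

theorem pe_isMono (σ : Equiv.Perm ι) : IsMono (pe (F := F) (κ := κ) σ) := ⟨1, σ, by rw [map_one, one_mul]⟩

theorem Over.le_O (hM : Over q M) : M ≤ O (QT q ι) := hM.1.trans E_le_O

theorem Over.siegel_mem (hM : Over q M) (h2 : (2 : F) ≠ 0) (hG : Good (QT q ι)) (i : ι) {u z : κ → F}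
    (hu : q u = 0) (hz : polar q u z = 0) : slE i (siegel q u z hu hz) ∈ M :=
  hM.2 _ (slE_siegel_mem_E h2 hG i hu hz) (slE_isMono _ _)

theorem Over.slE_mem (hM : Over q M) (h2 : (2 : F) ≠ 0) (hG : Good (QT q ι)) (i : ι) {g : (κ → F) ≃ₗ[F] (κ → F)}
    (hg : g ∈ E q) : slE i g ∈ M :=
  hM.2 _ (slE_mem_E h2 hG i hg) (slE_isMono _ _)

/-- Thinness in terms of `InZ`. -/
theorem Thin.inZ (hT : Thin q M) (h2 : (2 : F) ≠ 0) (hq : Nondeg q) (i : ι) {w : κ → F} (hw : q w = 0)
    (hw0 : w ≠ 0) {δ : Module.End F (({j // j ≠ i} → κ) → F)} (h : InZ (ten F κ i) q M w δ) : δ = 0 := by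
  obtain ⟨g, hg, hgt⟩ := h
  have S := tst (ι := ι) h2 hq i
  have key : ∀ v, g v = v + ten F κ i (δ (S.cw w v)) w := by
    have : (g : Module.End F ((ι → κ) → F)) = LinearMap.id + (ten F κ i).flip w ∘ₗ δ ∘ₗ S.cw w := by
      refine ext_t S.ten fun u z => ?_
      rw [LinearEquiv.coe_coe, hgt, LinearMap.add_apply, LinearMap.comp_apply, LinearMap.comp_apply, S.cw_t,
        map_smul, map_smul]
      rfl
    intro v
    exact LinearMap.congr_fun this v
  have h1 := hT i w hw0 hw g hg (by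
    intro v hv
    have h3 : S.cw w v = 0 := (S.cw_eq_zero_iff v w).2 hv
    rw [key, h3, map_zero, map_zero, LinearMap.zero_apply, add_zero])
  obtain ⟨w', hyp⟩ := LieClassical.OrthTrans.exists_hyp hq hw hw0
  refine LinearMap.ext fun u => ?_
  have h3 := hgt u w'
  rw [h1, hyp.pair, one_smul] at h3
  exact eq_zero_of_t S.ten (left_eq_add.1 h3) hw0


/-- The elements of the radical in `M` are the Siegel elements of the slot. -/
def RadP (q : QuadraticForm F (κ → F)) (M : Subgroup (((ι → κ) → F) ≃ₗ[F] ((ι → κ) → F))) : Prop :=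
  ∀ (i : ι) (w : κ → F) (hw : q w = 0), w ≠ 0 → ∀ g ∈ M,
    ∀ τ : (κ → F) →ₗ[F] (({j // j ≠ i} → κ) → F) →ₗ[F] (({j // j ≠ i} → κ) → F), IsR (ten F κ i) q w g τ →
    ∃ (x : κ → F) (hx : polar q w x = 0), g = slE i (siegel q w x hw hx)

/-- a pair of directions with transfer: the parameters are scalar. -/
theorem pair_scalar [Finite F] (h2 : (2 : F) ≠ 0) (hq : Nondeg q) (hd : 3 ≤ Fintype.card κ)
    (hF : 4 ≤ Fintype.card κ ∨ ∃ c : F, c ≠ 0 ∧ c * c ≠ 1) (hG : Good (QT q ι)) (hM : Over q M) (hT : Thin q M)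
    {i : ι} {w : κ → F} (hw : q w = 0) (hw0 : w ≠ 0) {y0 y1 : κ → F} (hy0 : polar q w y0 = 0)
    (hy1 : polar q w y1 = 0) (hy : polar q y0 y1 ≠ 0)
    (htr : ∀ β : Module.End F (({j // j ≠ i} → κ) → F),
      InR (ten F κ i) q M w ((polarBilin q y0).smulRight β) → InR (ten F κ i) q M w ((polarBilin q y1).smulRight β))
    {α : Module.End F (({j // j ≠ i} → κ) → F)} (hα : InR (ten F κ i) q M w ((polarBilin q y0).smulRight α)) :
    ∃ c : F, α = c • 1 := by
  have S := tst (ι := ι) h2 hq i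
  have hle := hM.le_O
  have hsg : ∀ (x : κ → F) (hx : polar q w x = 0), rW S.ten (siegel q w x hw hx) ∈ M := fun x hx => by
    have := hM.siegel_mem h2 hG i hw hx
    rwa [slE_eq_rW] at this
  have hZ : ∀ δ, InZ (ten F κ i) q M w δ → δ = 0 := fun δ hδ => hT.inZ h2 hq i hw hw0 hδ
  have hsym : ∀ α : Module.End F (({j // j ≠ i} → κ) → F),
      InR (ten F κ i) q M w ((polarBilin q y0).smulRight α) →
      ∀ v v', polar (QT q {j // j ≠ i}) (α v) v' = polar (QT q {j // j ≠ i}) v (α v') := by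
    intro α hα v v'
    have h1 := tau_symm' S hle hw hw0 hsg hZ hα hy1 v v'
    simp only [LinearMap.smulRight_apply, LinearMap.smul_apply, polarBilin_apply_apply, polar_smul_left,
      polar_smul_right, smul_eq_mul] at h1
    exact mul_left_cancel₀ hy h1
  refine irr h2 hq hd hF hw hw0 (fun α => InR (ten F κ i) q M w ((polarBilin q y0).smulRight α)) ?_ ?_ ?_ hα
  · intro α β hα hβ
    have h1 := S.inR_sub hα hβ
    have e : (polarBilin q y0).smulRight α - (polarBilin q y0).smulRight β =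
        (polarBilin q y0).smulRight (α - β) := by
      refine LinearMap.ext fun z => LinearMap.ext fun u => ?_
      simp only [LinearMap.smulRight_apply, LinearMap.smul_apply, LinearMap.sub_apply, smul_sub]
    rwa [e] at h1
  · intro α hα j u z hu hz
    have hk : rU S.ten (slE j (siegel q u z hu hz)) ∈ M := by
      have := hM.siegel_mem h2 hG (j : ι) hu hz
      rwa [slE_sub] at this
    refine S.inR_cj hα hk fun z => ?_
    refine LinearMap.ext fun u => ?_
    simp only [LinearMap.smulRight_apply, LinearMap.smul_apply, cj_apply, map_smul]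
  · intro α β hα hβ
    refine LinearMap.ext fun u => ?_
    exact tau_commute' S hle hw hw0 hZ hy0 hy1 hy hα (htr _ hβ) (hsym _ hα) (hsym _ hβ) u

theorem radP_three [Finite F] (h2 : (2 : F) ≠ 0) (hq : Nondeg q) (hd : Fintype.card κ = 3)
    (hF : ∃ c : F, c ≠ 0 ∧ c * c ≠ 1) (hG : Good (QT q ι)) (hM : Over q M) (hT : Thin q M) : RadP q M := by
  intro i w hw hw0 g hg τ hgτ
  have S := tst (ι := ι) h2 hq i
  have hsg : ∀ (x : κ → F) (hx : polar q w x = 0), rW S.ten (siegel q w x hw hx) ∈ M := fun x hx => by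
    have := hM.siegel_mem h2 hG i hw hx
    rwa [slE_eq_rW] at this
  obtain ⟨w', hyp⟩ := LieClassical.OrthTrans.exists_hyp hq hw hw0
  obtain ⟨z0, hz1, hz2, hz3⟩ := exists_nonsing_perp hq
    (by rw [Module.finrank_fintype_fun_eq_card, hd]) hyp
  have hz4 : polar q z0 z0 ≠ 0 := by rw [polar_self']; exact mul_ne_zero h2 hz3
  have hexp : ∀ z, polar q w z = 0 → z = polar q w' z • w + ((polar q z0 z0)⁻¹ * polar q z0 z) • z0 := by
    intro z hz
    have := expand3 (by rw [Module.finrank_fintype_fun_eq_card, hd]) hyp hz1 hz2 hz4 z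
    rw [hz, zero_smul, add_zero] at this
    exact this
  have hin : InR (ten F κ i) q M w ((polarBilin q z0).smulRight ((polar q z0 z0)⁻¹ • τ z0)) := by
    refine ⟨g, hg, isR_congr hgτ fun z hz => ?_⟩
    refine LinearMap.ext fun u => ?_
    conv_lhs => rw [hexp z hz]
    rw [map_add, map_smul, map_smul, LinearMap.add_apply, LinearMap.smul_apply, S.tau_self hw hw0 hgτ]
    simp only [LinearMap.smulRight_apply, LinearMap.smul_apply, polarBilin_apply_apply]
    module
  obtain ⟨c, hc⟩ := pair_scalar h2 hq (by omega) (Or.inr hF) hG hM hT hw hw0 hz1 hz1 hz4 (fun _ h => h) hin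
  obtain ⟨x0, _⟩ : ∃ x : κ → F, x ≠ 0 := ⟨w, hw0⟩
  have : Nontrivial (({j // j ≠ i} → κ) → F) := ⟨tp (fun _ => w), 0, tp_ne_zero fun _ => hw0⟩
  have h3 := eq_siegel S hM.le_O (nondeg_QT h2 hq) hw hw0 hg hgτ hsg
    (fun δ hδ => hT.inZ h2 hq i hw hw0 hδ) (by
      intro y hy
      refine ⟨(polar q z0 z0)⁻¹ * polar q z0 y * (polar q z0 z0 * c), fun u => ?_⟩
      have h5 : τ z0 u = (polar q z0 z0 * c) • u := by
        have h6 := LinearMap.congr_fun hc u
        rw [LinearMap.smul_apply, LinearMap.smul_apply, Module.End.one_apply] at h6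
        rw [← smul_smul, ← h6, smul_smul, mul_inv_cancel₀ hz4, one_smul]
      conv_lhs => rw [hexp y hy]
      rw [map_add, map_smul, map_smul, LinearMap.add_apply, LinearMap.smul_apply, S.tau_self hw hw0 hgτ,
        LinearMap.smul_apply, h5]
      module)
  obtain ⟨x, hx, h3⟩ := h3
  exact ⟨x, hx, by rw [slE_eq_rW]; exact h3⟩

theorem tau_scalar_sing [Finite F] (h2 : (2 : F) ≠ 0) (hq : Nondeg q) (hd : 5 ≤ Fintype.card κ)
    (hG : Good (QT q ι)) (hM : Over q M) (hT : Thin q M) {i : ι} {w : κ → F} (hw : q w = 0) (hw0 : w ≠ 0)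
    {τ : (κ → F) →ₗ[F] (({j // j ≠ i} → κ) → F) →ₗ[F] (({j // j ≠ i} → κ) → F)}
    (h : InR (ten F κ i) q M w τ) {y0 : κ → F}
    (hy0 : q y0 = 0) (hwy0 : polar q w y0 = 0) : ∃ c : F, ∀ u, τ y0 u = c • u := by
  have S := tst (ι := ι) h2 hq i
  have hsgE : ∀ (u x : κ → F) (hu : q u = 0) (hx : polar q u x = 0), rW S.ten (siegel q u x hu hx) ∈ M :=
    fun u x hu hx => by
      have := hM.siegel_mem h2 hG i hu hx
      rwa [slE_eq_rW] at this
  by_cases hmul : ∃ c : F, y0 = c • w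
  · obtain ⟨c, rfl⟩ := hmul
    obtain ⟨g, hg, hgτ⟩ := h
    refine ⟨0, fun u => ?_⟩
    rw [map_smul, LinearMap.smul_apply, S.tau_self hw hw0 hgτ]
    simp
  push Not at hmul
  obtain ⟨y, hy1, hy2⟩ := exists_sep S.ndW hmul
  have hyp0 : Hyp q y0 (y + (-q y) • y0) := by
    refine ⟨hy0, ?_, ?_⟩
    · rw [Q_add, QuadraticMap.map_smul, hy0, polar_smul_right, polar_comm q y y0, hy2]
      simp
    · rw [polar_add_right, polar_smul_right, polar_self_of_sing hy0, hy2]
      simp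
  set y0' := y + (-q y) • y0 with hy0'
  have hwy0' : polar q w y0' = 0 := by
    rw [hy0', polar_add_right, polar_smul_right, hy1, hwy0]; simp
  obtain ⟨w'', hyp1, hw1, hw2⟩ := exists_hyp_perp S.ndW hyp0 hw hw0 (by rw [polar_comm]; exact hwy0)
    (by rw [polar_comm]; exact hwy0')
  obtain ⟨a, c, ⟨a1, a2, a3, -⟩, ⟨c1, c2, c3, -⟩, hac⟩ := exists_perp4 S.ndW
    (by rw [Module.finrank_fintype_fun_eq_card]; exact hd) hyp0 hyp1
    (by rw [polar_comm]; exact hwy0) hw1 (by rw [polar_comm]; exact hwy0') hw2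
  obtain ⟨z1, hz1, hz2, hz3, hz4⟩ : ∃ z1, polar q y0 z1 = 0 ∧ polar q y0' z1 = 0 ∧ polar q w z1 = 0 ∧
      q z1 ≠ 0 := by
    rcases exists_nonsing hac with h | h | h
    · exact ⟨a, a1, a2, a3, h⟩
    · exact ⟨c, c1, c2, c3, h⟩
    · exact ⟨a + c, by rw [polar_add_right, a1, c1, add_zero], by rw [polar_add_right, a2, c2, add_zero],
        by rw [polar_add_right, a3, c3, add_zero], h⟩
  have hy0w : polar q y0 w = 0 := by rw [polar_comm]; exact hwy0
  have hy0'w : polar q y0' w = 0 := by rw [polar_comm]; exact hwy0'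
  have hz1w : polar q z1 w = 0 := by rw [polar_comm]; exact hz3
  -- first: `y0 ⊗ α₀`
  have hα0 : InR (ten F κ i) q M w ((polarBilin q y0).smulRight ((-(2 * q z1)) • τ y0)) := by
    set l := siegel q y0 z1 hy0 hz1 with hl
    have hlX : rW S.ten l ∈ M := hsgE y0 z1 hy0 hz1
    have hlO : l ∈ O q := siegel_mem_O hy0 hz1
    have hlw : l w = w := by rw [hl, siegel_apply, hy0w, hz1w]; simp
    have h1 : InR (ten F κ i) q M w (τ ∘ₗ (l⁻¹ : (κ → F) ≃ₗ[F] (κ → F)).toLinearMap - τ) :=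
      S.inR_sub (S.inR_cjW h hlX hlO hlw (fun z => rfl)) h
    have h3 : InR (ten F κ i) q M w ((τ ∘ₗ (l⁻¹ : (κ → F) ≃ₗ[F] (κ → F)).toLinearMap - τ) ∘ₗ
        (l⁻¹ : (κ → F) ≃ₗ[F] (κ → F)).toLinearMap -
        (τ ∘ₗ (l⁻¹ : (κ → F) ≃ₗ[F] (κ → F)).toLinearMap - τ)) :=
      S.inR_sub (S.inR_cjW h1 hlX hlO hlw (fun z => rfl)) h1
    have e : (τ ∘ₗ (l⁻¹ : (κ → F) ≃ₗ[F] (κ → F)).toLinearMap - τ) ∘ₗ
        (l⁻¹ : (κ → F) ≃ₗ[F] (κ → F)).toLinearMap -
        (τ ∘ₗ (l⁻¹ : (κ → F) ≃ₗ[F] (κ → F)).toLinearMap - τ) =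
          (polarBilin q y0).smulRight ((-(2 * q z1)) • τ y0) := by
      refine LinearMap.ext fun z => LinearMap.ext fun u => ?_
      have e1 : ∀ z, l⁻¹ z = z - polar q y0 z • z1 + polar q z1 z • y0 - (q z1 * polar q y0 z) • y0 :=
        fun z => siegel_inv_apply hy0 hz1 z
      have e2 : l⁻¹ (l⁻¹ z) - l⁻¹ z - (l⁻¹ z - z) = (-(2 * q z1) * polar q y0 z) • y0 := by
        have f1 : polar q z1 y0 = 0 := by rw [polar_comm]; exact hz1
        simp only [e1, polar_sub_right, polar_add_right, polar_smul_right, hz1, f1, polar_self_of_sing hy0,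
          polar_self' z1, smul_eq_mul]
        module
      have e3 := congrArg (fun z => τ z u) e2
      simp only [map_sub, map_smul, LinearMap.sub_apply, LinearMap.smul_apply] at e3
      simp only [LinearMap.sub_apply, LinearMap.comp_apply, LinearEquiv.coe_coe, LinearMap.smulRight_apply,
        LinearMap.smul_apply, polarBilin_apply_apply]
      rw [e3]
      module
    rwa [e] at h3
  -- transfer from `y0` to a multiple of `y0'`
  have htr : ∀ β : Module.End F (({j // j ≠ i} → κ) → F), InR (ten F κ i) q M w ((polarBilin q y0).smulRight β) →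
      InR (ten F κ i) q M w ((polarBilin q (-(q z1) • y0')).smulRight β) := by
    intro β hβ
    set z := y0 + z1 - q z1 • y0' with hz
    have hzs : q z = 0 := sing_vec hyp0 hz1 hz2
    have hzw : polar q z w = 0 := by
      rw [hz, polar_sub_left, polar_add_left, polar_smul_left, hy0w, hz1w, hy0'w]; simp
    have hzy0 : polar q z y0 = -(q z1) := by
      rw [hz, polar_sub_left, polar_add_left, polar_smul_left, hyp0.polar_left, polar_comm q z1, hz1, hyp0.pair']
      simp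
    have hzy0' : polar q z y0' = 1 := by
      rw [hz, polar_sub_left, polar_add_left, polar_smul_left, hyp0.polar_right, polar_comm q z1, hz2, hyp0.pair]
      simp
    have hn : -(q z1) ≠ 0 := neg_ne_zero.2 hz4
    set x := y0' - (-(q z1))⁻¹ • y0 with hx
    have hzx : polar q z x = 0 := by
      rw [hx, polar_sub_right, polar_smul_right, hzy0, hzy0', smul_eq_mul, inv_mul_cancel₀ hn, sub_self]
    have hxw : polar q x w = 0 := by
      rw [hx, polar_sub_left, polar_smul_left, hy0w, hy0'w]; simp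
    set l := siegel q z x hzs hzx with hl
    have hlX : rW S.ten l ∈ M := hsgE z x hzs hzx
    have hlO : l ∈ O q := siegel_mem_O hzs hzx
    have hlw : l w = w := by rw [hl, siegel_apply, hzw, hxw]; simp
    have hly0 : l y0 = -(q z1) • y0' := by
      have hxy0 : polar q x y0 = 1 := by
        rw [hx, polar_sub_left, polar_smul_left, hyp0.polar_left, hyp0.pair']; simp
      have hQx : q x = - (-(q z1))⁻¹ := by
        rw [hx, sub_eq_add_neg, ← neg_smul, Q_add, QuadraticMap.map_smul, hyp0.left, hyp0.right,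
          polar_smul_right, hyp0.pair']
        simp
      rw [hl, siegel_apply, hzy0, hxy0, hQx, hx, hz]
      have hi : (q z1)⁻¹ * q z1 = 1 := inv_mul_cancel₀ hz4
      have hi2 : (-(q z1))⁻¹ * (-(q z1)) = 1 := inv_mul_cancel₀ hn
      rw [neg_mul, hi2, smul_sub, smul_smul, mul_inv_cancel₀ hn]
      module
    refine S.inR_cjW hβ hlX hlO hlw fun z' => ?_
    refine LinearMap.ext fun u => ?_
    simp only [LinearMap.smulRight_apply, LinearMap.smul_apply, polarBilin_apply_apply]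
    rw [← hly0, ← polar_map hlO y0 (l⁻¹ z')]
    have : l (l⁻¹ z') = z' := LinearEquiv.apply_symm_apply l z'
    rw [this]
  have hpy : polar q y0 (-(q z1) • y0') ≠ 0 := by
    rw [polar_smul_right, hyp0.pair, smul_eq_mul, mul_one]
    exact neg_ne_zero.2 hz4
  obtain ⟨c, hc⟩ := pair_scalar h2 hq (by omega) (Or.inl (by omega)) hG hM hT hw hw0 hwy0
    (by rw [polar_smul_right, hwy0', smul_zero]) hpy htr hα0
  have hn : (-(2 * q z1)) ≠ 0 := neg_ne_zero.2 (mul_ne_zero h2 hz4)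
  refine ⟨(-(2 * q z1))⁻¹ * c, fun u => ?_⟩
  have h1 := LinearMap.congr_fun hc u
  rw [LinearMap.smul_apply, LinearMap.smul_apply, Module.End.one_apply] at h1
  rw [← smul_smul, ← h1, smul_smul, inv_mul_cancel₀ hn, one_smul]

theorem radP_five [Finite F] (h2 : (2 : F) ≠ 0) (hq : Nondeg q) (hd : 5 ≤ Fintype.card κ)
    (hG : Good (QT q ι)) (hM : Over q M) (hT : Thin q M) : RadP q M := by
  intro i w hw hw0 g hg τ hgτ
  have S := tst (ι := ι) h2 hq i
  have hsg : ∀ (x : κ → F) (hx : polar q w x = 0), rW S.ten (siegel q w x hw hx) ∈ M := fun x hx => by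
    have := hM.siegel_mem h2 hG i hw hx
    rwa [slE_eq_rW] at this
  have hGq : Good q := LieClassical.OrthFinite.good_of_finite hq
    (by rw [Module.finrank_fintype_fun_eq_card]; exact hd)
  obtain ⟨w', hyp⟩ := LieClassical.OrthTrans.exists_hyp hq hw hw0
  have hIn : InR (ten F κ i) q M w τ := ⟨g, hg, hgτ⟩
  have hscal : ∀ y, polar q w y = 0 → ∃ c : F, ∀ u, τ y u = c • u := by
    obtain ⟨z0, z0', hyp2, q1, q2, q3, q4⟩ := hGq.exists_hyp2 hyp
    have hperp : ∀ v, polar q w v = 0 → polar q w' v = 0 → ∃ c : F, ∀ u, τ v u = c • u := by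
      intro v
      refine sing_induction_perp hyp2 q1 q2 q3 q4 (P := fun v => ∃ c : F, ∀ u, τ v u = c • u) ?_ ?_ v
      · rintro a c _ _ _ _ ⟨c1, h1⟩ ⟨c2, h2⟩
        refine ⟨c1 + c2, fun u => ?_⟩
        rw [map_add, LinearMap.add_apply, h1, h2, add_smul]
      · intro a ha ha1 _
        exact tau_scalar_sing h2 hq hd hG hM hT hw hw0 hIn ha ha1
    intro y hy
    have e : y = LieClassical.OrthTrans.proj q w w' y + polar q w' y • w := by
      rw [LieClassical.OrthTrans.proj, hy]; module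
    obtain ⟨c, hc⟩ := hperp _ (polar_proj_left hyp y) (polar_proj_right hyp y)
    refine ⟨c, fun u => ?_⟩
    rw [e, map_add, map_smul, LinearMap.add_apply, LinearMap.smul_apply, hc, S.tau_self hw hw0 hgτ]
    simp
  have : Nontrivial (({j // j ≠ i} → κ) → F) := ⟨tp (fun _ => w), 0, tp_ne_zero fun _ => hw0⟩
  obtain ⟨x, hx, h3⟩ := eq_siegel S hM.le_O (nondeg_QT h2 hq) hw hw0 hg hgτ hsg
    (fun δ hδ => hT.inZ h2 hq i hw hw0 hδ) hscal
  exact ⟨x, hx, by rw [slE_eq_rW]; exact h3⟩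

end Cfsg.Agent.H883.C7
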