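import Cfsg.Agent.H883.C7.NIface
import Cfsg.Agent.H883.C7.Rad
import Cfsg.Agent.H883.C7.CentB

/-!
# Interface of part (L): thin overgroups satisfy (D)
-/

set_option autoImplicit false
set_option linter.unusedSectionVars false

namespace Cfsg.Agent.H883.C7

open QuadraticMap hiding proj
open Cfsg.Agent.LieClassical.OrthCore Cfsg.Agent.LieClassical.OrthTrans
open Cfsg.Agent.H882.Ten Cfsg.Agent.LieClassical.OrthFinite

variable {F : Type*} [Field F] {κ : Type*} [Fintype κ] [DecidableEq κ] {ι : Type*} [Fintype ι] [DecidableEq ι]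

/-- The elements `b = α ⊗ 1 + ζ ⊗ ω_w` of `M` with `α ∈ Ω (A_j)` have `ζ = 0`. -/
def ZP (q : QuadraticForm F (κ → F)) (M : Subgroup (((ι → κ) → F) ≃ₗ[F] ((ι → κ) → F))) : Prop :=
  ∀ (j : ι) (w : κ → F), w ≠ 0 → q w = 0 → ∀ b ∈ M,
    ∀ (α : (({l // l ≠ j} → κ) → F) ≃ₗ[F] (({l // l ≠ j} → κ) → F))
      (ζ : Module.End F (({l // l ≠ j} → κ) → F)),
      α ∈ ⁅O (QT q {l // l ≠ j}), O (QT q {l // l ≠ j})⁆ → IsB (ten F κ j) q w b α ζ → ζ = 0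

/-- The parameter `τ` of an element `c = (α ⊗ 1) r` of `M` is scalar. -/
def SP (q : QuadraticForm F (κ → F)) (M : Subgroup (((ι → κ) → F) ≃ₗ[F] ((ι → κ) → F))) : Prop :=
  ∀ (j : ι) (w : κ → F), w ≠ 0 → q w = 0 → ∀ c ∈ M,
    ∀ (α : (({l // l ≠ j} → κ) → F) ≃ₗ[F] (({l // l ≠ j} → κ) → F)) (r : ((ι → κ) → F) ≃ₗ[F] ((ι → κ) → F))
      (τ : (κ → F) →ₗ[F] (({l // l ≠ j} → κ) → F) →ₗ[F] (({l // l ≠ j} → κ) → F)),
      c = rU (isTen F κ j) α * r → IsR (ten F κ j) q w r τ →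
      ∀ z, polar q w z = 0 → ∃ a : F, ∀ u, τ z u = a • u

end Cfsg.Agent.H883.C7
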